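import Cfsg.Agent.H224.OZ.Base
import Cfsg.Agent.H224.OZ.ReeAr
import Cfsg.Agent.H732.DegRee

/-!
# S4842: the small Ree groups (helper224)
-/

set_option autoImplicit false
set_option linter.unusedSectionVars false

namespace Cfsg.Agent.H224.OZ

open Cfsg Cfsg.Agent.H730.OZ
open Cfsg.Agent.LieRecognition
open Cfsg.Agent.LieRecognition.ReeAbs Cfsg.Agent.LieRecognition.ReeSylowThree
  Cfsg.Agent.LieRecognition.ReeSplit
open Cfsg.Agent.H88 Cfsg.Agent.H732.RankOneGG Cfsg.Agent.H732.DegRee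
open Cfsg.Agent.LieRecognition.RankOneAbstract (Data)
open Cfsg.Agent.Characters.Core

universe u

/-! ### rank one -/

section rank

variable {G : Type*} [Group G] [Fintype G] {H U T : Subgroup G} {w : G} [Fintype H]

/-- an irreducible induced character -/
theorem eq_ind {f : H →* ℂˣ} (hirr : IsIrrCharacter G (indFun H (fun t => (f t : ℂ)))) {χ : IrrCharacter G}
    (h : mu H f χ ≠ 0) : (χ : G → ℂ) = indFun H (fun t => (f t : ℂ)) := by
  by_contra h4
  have h6 := ind_inner H f χ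
  rw [classInner_irr_ne hirr χ.2 (fun h => h4 h.symm)] at h6
  exact h (by exact_mod_cast h6.symm)

/-- the constituents of `Ind f`, `f` invariant -/
theorem mem_split (D : Data H U w) (hT : ∀ g, g ∈ T ↔ g ∈ H ∧ w⁻¹ * g * w ∈ H) {f : H →* ℂˣ}
    (hf : Inv H U w f) {θ₁ θ₂ χ : IrrCharacter G} (h12 : θ₁ ≠ θ₂) (h1 : mu H f θ₁ = 1) (h2 : mu H f θ₂ = 1)
    (h : mu H f χ ≠ 0) : χ = θ₁ ∨ χ = θ₂ := by
  classical
  have : Finite (IrrCharacter G) := Characters.Core.finite_irr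
  have := Fintype.ofFinite (IrrCharacter G)
  by_contra hcon
  push Not at hcon
  have h3 := sum_sq_inv D hT f hf
  have h4 : ∑ χ ∈ ({θ₁, θ₂, χ} : Finset (IrrCharacter G)), mu H f χ ^ 2 ≤ ∑ χ : IrrCharacter G, mu H f χ ^ 2 :=
    Finset.sum_le_sum_of_subset (Finset.subset_univ _)
  rw [Finset.sum_insert (by simp [h12, hcon.1.symm]), Finset.sum_pair hcon.2.symm, h1, h2, h3] at h4
  have h5 : 0 < mu H f χ ^ 2 := pow_pos (Nat.pos_of_ne_zero h) 2
  omega

/-- the trivial character -/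
noncomputable def triv (G : Type*) [Group G] : IrrCharacter G :=
  ⟨fun g => ((1 : G →* ℂˣ) g : ℂ), Characters.Linear.isIrrCharacter_hom 1⟩

theorem mu_triv : mu H 1 (triv G) ≠ 0 := by
  classical
  have h5 := mu_spec H 1 (triv G)
  have h6 : (fun u : H => (triv G : G → ℂ) u) = fun u => ((1 : H →* ℂˣ) u : ℂ) := by
    ext u
    rfl
  rw [h6, inner_hom, if_pos rfl] at h5
  intro h0
  rw [h0] at h5
  norm_num at h5

end rank

/-! ### the small Ree groups -/

section ree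

variable {K : Type*} [Field K] [Fintype K] {G : Type*} [Group G] {m : ℕ}
  {U : K → K → K → G} {h : Kˣ → G} {n : G}

theorem reg_h (D : ReeAbs.Data m U h n) (hK : Fintype.card K = 3 ^ (2 * m + 1)) {a : Kˣ} (ha : a ^ 2 ≠ 1) :
    ∀ u ∈ uSub D, h a * u = u * h a → u = 1 := by
  intro u hu hxu
  have h1 : u ∈ Subgroup.centralizer ({h a} : Set G) := by
    rw [Subgroup.mem_centralizer_singleton_iff]
    exact hxu.symm
  rw [centralizer_h D hK ha] at h1
  obtain ⟨b, rfl⟩ := (mem_hSub D).1 h1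
  by_contra hne
  apply h_not_mem D (a := b) _ hu
  rintro rfl
  exact hne D.h_one

theorem half_odd {q : ℕ} (h8 : q % 8 = 3) : ((q - 1) / 2) % 2 = 1 := by omega

/-- invariant characters are trivial on the elements of odd order of the torus -/
theorem inv_trivial (D : ReeAbs.Data m U h n) {f : bSub D →* ℂˣ} (hf : Inv (bSub D) (uSub D) n f)
    (x : bSub D) (hx : (x : G) ∈ aSub D) : f x = 1 := by
  obtain ⟨a, ha, hxa⟩ := (mem_aSub D).1 hx
  have h2 : x = hh D a := Subtype.ext hxa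
  have h3 := inv_sq D hf a
  have h4 : f (hh D a) ^ ((3 ^ (2 * m + 1) - 1) / 2) = 1 := by rw [← map_pow, ← map_pow, ha, map_one, map_one]
  have h8 := three_pow_odd_mod m
  have hodd := half_odd h8
  obtain ⟨c, hc⟩ : ∃ c, (3 ^ (2 * m + 1) - 1) / 2 = 2 * c + 1 := ⟨_, (Nat.div_add_mod _ 2).symm.trans (by rw [hodd])⟩
  rw [hc, pow_succ, pow_mul, h3, one_pow, one_mul] at h4
  rw [h2, h4]

theorem ab_eq (m : ℕ) (hm : 1 ≤ m) : (3 ^ (2 * m + 1) - 3 ^ (m + 1) + 1) * (3 ^ (2 * m + 1) + 3 ^ (m + 1) + 1) =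
      (3 ^ (2 * m + 1)) ^ 2 - 3 ^ (2 * m + 1) + 1 := by
  have hle : 3 ^ (m + 1) ≤ 3 ^ (2 * m + 1) := Nat.pow_le_pow_right (by norm_num) (by omega)
  have hs : 3 ^ (m + 1) * 3 ^ (m + 1) = 3 * 3 ^ (2 * m + 1) := by rw [← pow_add, ← pow_succ']; congr 1; ring
  have hle2 : 3 ^ (2 * m + 1) ≤ (3 ^ (2 * m + 1)) ^ 2 := Nat.le_self_pow (by norm_num) _
  zify [hle, hle2]
  zify at hs
  linear_combination (-1 : ℤ) * hs

/-- a character whose degree is divisible by `q² - q + 1` -/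
theorem not_of_Q [Finite G] (hm : 1 ≤ m)
    (hc : Nat.card G = (3 ^ (2 * m + 1)) ^ 3 * (3 ^ (2 * m + 1) - 1) * ((3 ^ (2 * m + 1)) ^ 3 + 1)) {χ : G → ℂ}
    (hχ : IsIrrCharacter G χ) (hd : (3 ^ (2 * m + 1)) ^ 2 - 3 ^ (2 * m + 1) + 1 ∣ charDegree χ) : ¬ OneZero χ := by
  have ar := ReeClass.arith m
  have hab := ab_eq m hm
  have hle : 3 ^ (m + 1) + 1 ≤ 3 ^ (2 * m + 1) := Nat.pow_lt_pow_right (by norm_num) (by omega)
  set A := 3 ^ (2 * m + 1) - 3 ^ (m + 1) + 1 with hA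
  set B := 3 ^ (2 * m + 1) + 3 ^ (m + 1) + 1 with hB
  set q := 3 ^ (2 * m + 1) with hq
  have hpos : 0 < 3 ^ (m + 1) := by positivity
  have hcopE : ∀ x : ℕ, x ∣ q ^ 2 - q + 1 → x.Coprime (q ^ 3 * (q - 1) * (q + 1)) := by
    intro x hx
    apply Nat.coprime_of_dvd
    intro r hr h1 h2
    obtain ⟨-, -, h3, h4, h5⟩ := ar.prime_Q hr (h1.trans hx)
    rcases (Nat.Prime.dvd_mul hr).1 h2 with h6 | h6
    · rcases (Nat.Prime.dvd_mul hr).1 h6 with h7 | h7
      · exact h3 (hr.dvd_of_dvd_pow h7)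
      · exact h4 h7
    · exact h5 h6
  have hAQ : A ∣ q ^ 2 - q + 1 := by rw [← hab]; exact Dvd.intro _ rfl
  have hBQ : B ∣ q ^ 2 - q + 1 := by rw [← hab]; exact Dvd.intro_left _ rfl
  refine not_of_coprime hχ (A := A) (B := B) (E := q ^ 3 * (q - 1) * (q + 1)) ?_ ?_ (hcopE A hAQ) (hcopE B hBQ)
    (hAQ.trans hd) (hBQ.trans hd) (by omega) (by omega)
  · rw [hc, ar.cube, hab]
    ring
  · apply Nat.coprime_of_dvd
    intro r hr h1 h2
    obtain ⟨r2, r3, -, -, -⟩ := ar.prime_Q hr (h1.trans hAQ)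
    have h3 := Nat.dvd_sub h2 h1
    have h4 : B - A = 2 * 3 ^ (m + 1) := by omega
    rw [h4] at h3
    rcases (Nat.Prime.dvd_mul hr).1 h3 with h5 | h5
    · exact r2 ((Nat.prime_dvd_prime_iff_eq hr Nat.prime_two).1 h5)
    · exact r3 ((Nat.prime_dvd_prime_iff_eq hr Nat.prime_three).1 (hr.dvd_of_dvd_pow h5))

/-- the constituents of the principal series of the quadratic character -/
theorem deg_split [Finite G] (D : ReeAbs.Data m U h n) (hm : 1 ≤ m) (hK : Fintype.card K = 3 ^ (2 * m + 1))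
    (hc : Nat.card G = (3 ^ (2 * m + 1)) ^ 3 * (3 ^ (2 * m + 1) - 1) * ((3 ^ (2 * m + 1)) ^ 3 + 1))
    (hG : commutator G = ⊤) [Fintype (bSub D)] {f : bSub D →* ℂˣ} (hf : Inv (bSub D) (uSub D) n f) (hf1 : f ≠ 1)
    {χ : IrrCharacter G} (hχ : mu (bSub D) f χ ≠ 0) :
    (3 ^ (2 * m + 1)) ^ 2 - 3 ^ (2 * m + 1) + 1 ∣ charDegree (χ : G → ℂ) := by
  classical
  have := Fintype.ofFinite G
  have : Finite (IrrCharacter G) := Characters.Core.finite_irr
  have := Fintype.ofFinite (IrrCharacter G)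
  have := Fintype.ofFinite (uSub D)
  have R := RkRee.rank_one D
  have hp3 : Fact (Nat.Prime 3) := ⟨Nat.prime_three⟩
  have hP := isPGroup D hK
  have h8 := three_pow_odd_mod m
  have hcU : Nat.card (uSub D) = (3 ^ (2 * m + 1)) ^ 3 := by rw [card_uSub D, hK]
  have hnt : Nontrivial (uSub D) := by
    rw [← Finite.one_lt_card_iff_nontrivial, hcU]
    exact Nat.one_lt_pow (by norm_num) (by omega)
  obtain ⟨ψ, hψ⟩ := H670.PSing.exists_linear_ne_one hP
  have hA : aSub D ≤ bSub D := by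
    intro x hx
    exact ((hT D x).1 (aSub_le D hx)).1
  have hcA := card_aSub D hK
  have hdvd : ∀ θ : IrrCharacter G, charDegree (θ : G → ℂ) ∣
      (3 ^ (2 * m + 1)) ^ 3 * (3 ^ (2 * m + 1) - 1) * ((3 ^ (2 * m + 1)) ^ 3 + 1) := by
    intro θ
    rw [← hc]
    exact Blocks.Knorr.charDegree_dvd θ.2
  obtain ⟨θ₁, θ₂, h12, c1, c2, m1, m2, g1, g2, hsum⟩ := H732.RankOneGG.exists_split R (hT D) f hf ψ hψ
  have hfA := inv_trivial D hf
  have e1 := modEq_one R f hf.1 m1 (by rw [c1]; exact one_ne_zero) (aSub D) hA (regular D hK) hfA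
  have e2 := modEq_one R f hf.1 m2 (by rw [c2]; exact one_ne_zero) (aSub D) hA (regular D hK) hfA
  have e3 := modEq_p hP m1 (by
    intro ν hν
    obtain ⟨x, rfl⟩ := Cfsg.Agent.H732.ReeLin.trans D hK hm hψ hν
    rw [mu_tw]; exact g1)
  rw [hcA] at e1 e2
  rw [hcU] at hsum
  have hpos : 1 ≤ charDegree (θ₁ : G → ℂ) := Blocks.Basic.charDegree_pos θ₁.2
  -- `θ₁` is not linear
  have hnl : charDegree (θ₁ : G → ℂ) ≠ 1 := by
    intro h1
    have h2 : (θ₁ : G → ℂ) 1 = 1 := by rw [Blocks.Basic.irr_one_eq_charDegree θ₁.2, h1, Nat.cast_one]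
    obtain ⟨φ, hφ⟩ := Characters.Linear.exists_hom_of_isIrrCharacter θ₁.2 h2
    have h3 : φ = 1 := by
      have h4 : commutator G ≤ φ.ker := Abelianization.commutator_subset_ker φ
      rw [hG, top_le_iff] at h4
      ext g
      have h5 : g ∈ φ.ker := by rw [h4]; trivial
      rw [MonoidHom.mem_ker.1 h5]; rfl
    have h5 := mu_spec (bSub D) f θ₁
    rw [c1] at h5
    have h6 : (fun u : bSub D => (θ₁ : G → ℂ) u) = fun u => ((1 : bSub D →* ℂˣ) u : ℂ) := by
      ext u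
      rw [hφ, h3]; rfl
    rw [h6, inner_hom, if_neg hf1] at h5
    norm_num at h5
  have ar := ReeClass.arith m
  have key := arith_deg (a := 2 * m + 1) (N := (3 ^ (2 * m + 1) - 1) / 2) (by omega) rfl (by omega) (by omega)
    e3 (by omega) e1 e2 hsum (hdvd θ₁) (hdvd θ₂)
  have h1 : charDegree (θ₁ : G → ℂ) = (3 ^ (2 * m + 1)) ^ 2 - 3 ^ (2 * m + 1) + 1 := by
    rw [ar.cube, mul_comm] at key
    exact Nat.eq_of_mul_eq_mul_left (by omega) key
  have h2 : charDegree (θ₂ : G → ℂ) = 3 ^ (2 * m + 1) * ((3 ^ (2 * m + 1)) ^ 2 - 3 ^ (2 * m + 1) + 1) := by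
    rw [ar.cube, h1, add_mul, one_mul] at hsum
    omega
  rcases mem_split R (hT D) hf h12 c1 c2 hχ with rfl | rfl
  · rw [h1]
  · rw [h2]; exact Dvd.intro_left _ rfl

/-- **No irreducible character of a small Ree group vanishes on exactly one class.** -/
theorem ree_not [Finite G] (D : ReeAbs.Data m U h n) (hm : 1 ≤ m) (hK : Fintype.card K = 3 ^ (2 * m + 1))
    (hc : Nat.card G = (3 ^ (2 * m + 1)) ^ 3 * (3 ^ (2 * m + 1) - 1) * ((3 ^ (2 * m + 1)) ^ 3 + 1))
    (hG : commutator G = ⊤) (χ : IrrCharacter G) : ¬ OneZero (χ : G → ℂ) := by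
  classical
  have := Fintype.ofFinite G
  have : Finite (IrrCharacter G) := Characters.Core.finite_irr
  have := Fintype.ofFinite (IrrCharacter G)
  have := Fintype.ofFinite (uSub D)
  have := Fintype.ofFinite (bSub D)
  have R := RkRee.rank_one D
  have ar := ReeClass.arith m
  have h8 := three_pow_odd_mod m
  have hcU : Nat.card (uSub D) = (3 ^ (2 * m + 1)) ^ 3 := by rw [card_uSub D, hK]
  have hq27 : 27 ≤ 3 ^ (2 * m + 1) := by
    calc 27 = 3 ^ 3 := by norm_num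
      _ ≤ 3 ^ (2 * m + 1) := Nat.pow_le_pow_right (by norm_num) (by omega)
  by_cases h0 : mu (uSub D) 1 χ = 0
  · -- cuspidal
    obtain ⟨g₀, hg₀⟩ := IsCyclic.exists_generator (α := Kˣ)
    have ho := orderOf_eq_card_of_forall_mem_zpowers hg₀
    rw [Nat.card_units, Nat.card_eq_fintype_card, hK] at ho
    have h2 : g₀ ^ 2 ≠ 1 := by
      intro h1
      have := Nat.le_of_dvd (by norm_num) (orderOf_dvd_of_pow_eq_one h1)
      omega
    have h4 : (g₀ ^ 2) ^ 2 ≠ 1 := by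
      intro h1
      rw [← pow_mul] at h1
      have := Nat.le_of_dvd (by norm_num) (orderOf_dvd_of_pow_eq_one h1)
      omega
    refine not_of_two (zero_of_mem R h0 (h_mem_bSub D g₀) (reg_h D hK h2))
      (zero_of_mem R h0 (h_mem_bSub D (g₀ ^ 2)) (reg_h D hK h4)) ?_
    rw [ReeTorus.orderOf_h D, ReeTorus.orderOf_h D, orderOf_pow_of_dvd (by norm_num) (by rw [ho]; omega), ho]
    omega
  obtain ⟨f, hfU, hf⟩ := exists_lin R (hab D) χ h0
  by_cases hinv : Inv (bSub D) (uSub D) n f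
  · by_cases hf1 : f = 1
    · subst hf1
      -- Steinberg
      have hnt : Nontrivial (uSub D) := by
        rw [← Finite.one_lt_card_iff_nontrivial, hcU]
        exact Nat.one_lt_pow (by norm_num) (by omega)
      have hp3 : Fact (Nat.Prime 3) := ⟨Nat.prime_three⟩
      obtain ⟨ψ, hψ⟩ := H670.PSing.exists_linear_ne_one (isPGroup D hK)
      obtain ⟨θ₁, θ₂, h12, c1, c2, m1, m2, g1, g2, hsum⟩ := H732.RankOneGG.exists_split R (hT D) 1 hinv ψ hψ
      have ht : charDegree (triv G : G → ℂ) = 1 := by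
        apply H670.PSing.charDegree_eq_of
        show (((1 : G →* ℂˣ) 1 : ℂˣ) : ℂ) = ((1 : ℕ) : ℂ)
        simp
      by_cases hχt : χ = triv G
      · rintro ⟨x, hx, -⟩
        rw [hχt] at hx
        exact ((1 : G →* ℂˣ) x).ne_zero hx
      have hdeg : charDegree (χ : G → ℂ) = (3 ^ (2 * m + 1)) ^ 3 := by
        rw [hcU] at hsum
        rcases mem_split R (hT D) hinv h12 c1 c2 hf with h1 | h1 <;>
          rcases mem_split R (hT D) hinv h12 c1 c2 (mu_triv (G := G) (H := bSub D)) with h2 | h2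
        · exact absurd (h1.trans h2.symm) hχt
        · rw [← h1, ← h2, ht] at hsum
          omega
        · rw [← h1, ← h2, ht] at hsum
          omega
        · exact absurd (h1.trans h2.symm) hχt
      have hA : Nat.card G = (3 ^ (2 * m + 1)) ^ 3 * ((3 ^ (2 * m + 1) - 1) * ((3 ^ (2 * m + 1)) ^ 3 + 1)) := by
        rw [hc]; ring
      have hAC : Nat.Coprime ((3 ^ (2 * m + 1)) ^ 3) ((3 ^ (2 * m + 1) - 1) * ((3 ^ (2 * m + 1)) ^ 3 + 1)) := by
        rw [← pow_mul]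
        apply Nat.Coprime.pow_left
        rw [Nat.Prime.coprime_iff_not_dvd Nat.prime_three]
        intro h1
        obtain ⟨-, t1, -, t2⟩ := ar.three_not
        rcases (Nat.Prime.dvd_mul Nat.prime_three).1 h1 with h2 | h2
        · exact t1 h2
        · rw [pow_mul] at h2; exact t2 h2
      have h3A : 3 ∣ (3 ^ (2 * m + 1)) ^ 3 := dvd_pow ar.three (by norm_num)
      exact not_of_two
        (zero_of_factor χ.2 hA hAC (by rw [hdeg]) Nat.prime_three h3A (x := U 1 0 0) (by rw [orderOf_U_one D hK]; norm_num))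
        (zero_of_factor χ.2 hA hAC (by rw [hdeg]) Nat.prime_three h3A (x := U 0 1 0) (by rw [orderOf_U_zero_one D hK]))
        (by rw [orderOf_U_one D hK, orderOf_U_zero_one D hK]; norm_num)
    · exact not_of_Q hm hc χ.2 (deg_split D hm hK hc hG hinv hf1 hf)
  · -- principal series
    have hirr : IsIrrCharacter G (indFun (bSub D) (fun t => (f t : ℂ))) := by
      by_contra hn
      apply hinv
      refine ⟨hfU, fun d hd hdw => ?_⟩
      by_contra hne
      exact hn (ind_irr R f hd hdw hne)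
    refine not_of_Q hm hc χ.2 ?_
    have h1 : charDegree (χ : G → ℂ) = (3 ^ (2 * m + 1)) ^ 3 + 1 := by
      apply H670.PSing.charDegree_eq_of
      rw [eq_ind hirr hf, ind_one, R.index, hcU]
    rw [h1, ar.cube]
    exact Dvd.intro_left _ rfl

end ree

theorem oneZero_comp {G : Type*} {H : Type*} [Group G] [Group H] (e : G ≃* H) {χ : H → ℂ} (h : OneZero χ) :
    OneZero (χ ∘ e.toMonoidHom) := by
  obtain ⟨x, hx, hxx⟩ := h
  refine ⟨e.symm x, by simpa using hx, fun y hy => ?_⟩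
  obtain ⟨c, hc⟩ := isConj_iff.1 (hxx (e y) hy)
  rw [isConj_iff]
  refine ⟨e.symm c, ?_⟩
  apply e.injective
  simp [hc]

/-- **The small Ree groups.** -/
theorem row_ree {S : Type u} [Group S] [Finite S] (_hs : IsSimpleGroup S) (h : Lie.IsoRee S) : Row S := by
  obtain ⟨K, _, _, m, hm, hK, ⟨e⟩⟩ := h
  have hfin : Finite ↥(Cfsg.Lie.twistedG2 K (3 ^ m)) := Finite.of_equiv S e.toEquiv
  intro χ hχ h0
  exfalso
  exact ree_not (ReeFinal.data hK) hm hK (ReeFinal.card hK) (Cfsg.Agent.S1116.result hK hm)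
    ⟨χ ∘ e.symm.toMonoidHom, isIrr_comp e.symm.toMonoidHom e.symm.surjective hχ⟩ (oneZero_comp e.symm h0)

end Cfsg.Agent.H224.OZ
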